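import Mathlib
import Cfsg.Agent.Lib.Helper14.SL2Odd

set_option autoImplicit false

namespace Cfsg.Agent.Lib.Helper14.SL2

open Matrix Cfsg.Agent.Lib.Helper14.GL2

variable {F : Type*} [Field F]

theorem mem_centralizer_upp_iff (s b : F) (hs : s ^ 2 = 1) (hb : b ≠ 0)
    (c : Matrix.SpecialLinearGroup (Fin 2) F) :
    c ∈ Subgroup.centralizer ({upp s b hs} : Set (Matrix.SpecialLinearGroup (Fin 2) F)) ↔
      (c : Matrix (Fin 2) (Fin 2) F) 1 0 = 0 ∧
        (c : Matrix (Fin 2) (Fin 2) F) 0 0 = (c : Matrix (Fin 2) (Fin 2) F) 1 1 := by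
  have hs0 : s ≠ 0 := by rintro rfl; simp at hs
  rw [Subgroup.mem_centralizer_iff]
  simp only [Set.mem_singleton_iff, forall_eq]
  constructor
  · intro h
    have h' : (upp s b hs : Matrix (Fin 2) (Fin 2) F) * (c : Matrix (Fin 2) (Fin 2) F) =
        (c : Matrix (Fin 2) (Fin 2) F) * (upp s b hs : Matrix (Fin 2) (Fin 2) F) :=
      congrArg Subtype.val h
    have e00 := congrFun (congrFun h' 0) 0
    have e01 := congrFun (congrFun h' 0) 1
    simp [upp, Matrix.mul_apply, Fin.sum_univ_two] at e00 e01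
    have h10 : (c : Matrix (Fin 2) (Fin 2) F) 1 0 = 0 := by
      have : (s * b) * (c : Matrix (Fin 2) (Fin 2) F) 1 0 = 0 := by linear_combination e00
      exact (mul_eq_zero.mp this).resolve_left (mul_ne_zero hs0 hb)
    refine ⟨h10, ?_⟩
    have : (s * b) * ((c : Matrix (Fin 2) (Fin 2) F) 0 0 - (c : Matrix (Fin 2) (Fin 2) F) 1 1) = 0 := by
      linear_combination (-1 : F) * e01
    exact sub_eq_zero.mp ((mul_eq_zero.mp this).resolve_left (mul_ne_zero hs0 hb))
  · rintro ⟨h10, h00⟩
    apply Subtype.ext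
    change (upp s b hs : Matrix (Fin 2) (Fin 2) F) * (c : Matrix (Fin 2) (Fin 2) F) =
        (c : Matrix (Fin 2) (Fin 2) F) * (upp s b hs : Matrix (Fin 2) (Fin 2) F)
    ext i j
    fin_cases i <;> fin_cases j <;> simp [upp, Matrix.mul_apply, Fin.sum_univ_two, h10, h00] <;> ring

/-- The centraliser of `±[[1, b], [0, 1]]`, `b ≠ 0`, in `SL₂(F)`. -/
noncomputable def centralizerUppEquiv (s b : F) (hs : s ^ 2 = 1) (hb : b ≠ 0) :
    Subgroup.centralizer ({upp s b hs} : Set (Matrix.SpecialLinearGroup (Fin 2) F)) ≃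
      {a : F // a ^ 2 = 1} × F where
  toFun c := (⟨(c.1 : Matrix (Fin 2) (Fin 2) F) 0 0, by
      obtain ⟨h10, h00⟩ := (mem_centralizer_upp_iff s b hs hb c.1).mp c.2
      have hdet := c.1.2
      rw [det_fin_two, h10, ← h00] at hdet
      linear_combination hdet⟩, (c.1 : Matrix (Fin 2) (Fin 2) F) 0 1)
  invFun ab := ⟨⟨!![ab.1.1, ab.2; 0, ab.1.1], by
      rw [det_fin_two_of]; linear_combination ab.1.2⟩,
      (mem_centralizer_upp_iff s b hs hb _).mpr (by simp)⟩
  left_inv c := by
    obtain ⟨h10, h00⟩ := (mem_centralizer_upp_iff s b hs hb c.1).mp c.2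
    apply Subtype.ext
    apply Subtype.ext
    ext i j
    fin_cases i <;> fin_cases j <;> simp [h10, h00]
  right_inv ab := by
    rcases ab with ⟨⟨a, ha⟩, b'⟩
    simp

theorem card_centralizer_upp [Fintype F] (s b : F) (hs : s ^ 2 = 1) (hb : b ≠ 0) :
    Nat.card (Subgroup.centralizer ({upp s b hs} : Set (Matrix.SpecialLinearGroup (Fin 2) F))) =
      Nat.card {a : F // a ^ 2 = 1} * Fintype.card F := by
  rw [Nat.card_congr (centralizerUppEquiv s b hs hb), Nat.card_prod, Nat.card_eq_fintype_card (α := F)]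

theorem card_sq_eq_one_of_two_ne_zero (h2 : (2 : F) ≠ 0) : Nat.card {a : F // a ^ 2 = 1} = 2 := by
  classical
  have : {a : F | a ^ 2 = 1} = {1, -1} := by
    ext a
    simp only [Set.mem_ofPred_eq, Set.mem_insert_iff, Set.mem_singleton_iff]
    constructor
    · intro h
      have hfac : (a - 1) * (a + 1) = 0 := by linear_combination h
      rcases mul_eq_zero.mp hfac with h | h
      · left; linear_combination h
      · right; linear_combination h
    · rintro (h | h) <;> rw [h] <;> ring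
  change Nat.card {a : F | a ^ 2 = 1} = 2
  rw [this, Nat.card_coe_set_eq, Set.ncard_pair]
  intro h
  exact h2 (by linear_combination h)

theorem card_sq_eq_one_of_two_eq_zero (h2 : (2 : F) = 0) : Nat.card {a : F // a ^ 2 = 1} = 1 := by
  have : {a : F | a ^ 2 = 1} = {1} := by
    ext a
    simp only [Set.mem_ofPred_eq, Set.mem_singleton_iff]
    constructor
    · intro h
      have hfac : (a - 1) ^ 2 = 0 := by linear_combination h + (1 - a) * h2
      exact sub_eq_zero.mp (pow_eq_zero_iff two_ne_zero |>.mp hfac)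
    · rintro rfl; ring
  change Nat.card {a : F | a ^ 2 = 1} = 1
  rw [this, Nat.card_coe_set_eq, Set.ncard_singleton]

end Cfsg.Agent.Lib.Helper14.SL2
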